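import Cfsg.Agent.H614.HE.Fld

/-!
# S4933, row `PSL_3(q)`, `p = 3` (helper614): `dHom` for shifted labels
-/

set_option autoImplicit false
set_option linter.unusedSectionVars false

namespace Cfsg.Agent.H614.HF

open scoped MatrixGroups
open Matrix Finset Cfsg Cfsg.Agent.H583.BR Cfsg.Agent.H199.PslAut Cfsg.Agent.H614.HE
open Cfsg.Agent.H139.Bruhat Cfsg.Agent.H139.BlockCount Cfsg.Agent.H139.FlagInner
open Cfsg.Agent.ClassicalGeometry.AutPSL.Root Cfsg.Agent.ClassicalGeometry.AutPSL.Auto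

universe v

variable {F : Type v} [Field F] {n : ℕ}

theorem bdet_det (b : Fin n → ℕ) (hb : ∀ i, b i < n) {A : Matrix (Fin n) (Fin n) F} (hA : A.BlockTriangular b) :
    bdet b (fun _ => 1) A = A.det := by
  classical
  rw [hA.det, bdet]
  simp only [pow_one]
  symm
  refine Finset.prod_subset ?_ ?_
  · intro k hk
    obtain ⟨i, -, rfl⟩ := Finset.mem_image.1 hk
    exact Finset.mem_range.2 (hb i)
  · intro k _ hk
    have h1 : IsEmpty {i // b i = k} := ⟨fun i => hk (Finset.mem_image.2 ⟨i.1, Finset.mem_univ _, i.2⟩)⟩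
    exact Matrix.det_isEmpty

theorem bdet_shift (b : Fin n → ℕ) (l : ℕ → ℕ) (m : ℕ) (A : Matrix (Fin n) (Fin n) F) :
    bdet b (fun k => 1 + m * l k) A = bdet b (fun _ => 1) A * bdet b l A ^ m := by
  rw [bdet, bdet, bdet, ← Finset.prod_pow, ← Finset.prod_mul_distrib]
  refine Finset.prod_congr rfl fun k _ => ?_
  rw [pow_add, mul_comm m, pow_mul]

theorem dHom_shift (a : Fin n → ℕ) (ha : ∑ i, a i = n) (l : ℕ → ℕ) (m : ℕ) (g : parabolicGL n F a)
    (hg : GeneralLinearGroup.det (g : GL (Fin n) F) = 1) :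
    dHom a ha (fun k => 1 + m * l k) g = dHom a ha l g ^ m := by
  apply Units.ext
  rw [coe_dHom, Units.val_pow_eq_pow_val, coe_dHom, bdet_shift, bdet_det _ (compLabel_lt a ha) g.2]
  have h1 := congrArg Units.val hg
  rw [GeneralLinearGroup.val_det_apply] at h1
  rw [h1, Units.val_one, one_mul]

/-- the invariance under field automorphisms -/
theorem θ_dHom {p : ℕ} [Fact p.Prime] [Finite F] (θ : Fˣ →* ℂˣ) {m : ℕ} (hθ : ∀ u, θ u ^ (m * p) = 1) (σ : F ≃+* F)
    {k : ℕ} (hσ : σ ^ (p ^ k) = 1) (a : Fin n → ℕ) (ha : ∑ i, a i = n) (l : ℕ → ℕ) (g : parabolicGL n F a)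
    (hg : GeneralLinearGroup.det (g : GL (Fin n) F) = 1) :
    θ (Units.map (σ : F →* F) (dHom a ha (fun k => 1 + m * l k) g)) = θ (dHom a ha (fun k => 1 + m * l k) g) := by
  rw [dHom_shift a ha l m g hg, map_pow, map_pow, map_pow]
  have h1 := θ_inv (p := p) (θ ^ m) (fun u => by rw [MonoidHom.pow_apply, ← pow_mul, hθ]) σ hσ (dHom a ha l g)
  rw [MonoidHom.pow_apply, MonoidHom.pow_apply] at h1
  exact h1

end Cfsg.Agent.H614.HF
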