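import Cfsg.Agent.H624.HT.RowOf
import Cfsg.Agent.H678.Subnormal
import Cfsg.Agent.H678.Codeg
import Cfsg.Agent.Blocks.Fong

/-!
# S4933 (helper614): the criterion with a normal subgroup `K ≥ N`
-/

set_option autoImplicit false
set_option linter.unusedSectionVars false

namespace Cfsg.Agent.H614.HF

open Cfsg Subgroup Cfsg.Agent.H316.HT Cfsg.Agent.Characters.Core
open Cfsg.Agent.Blocks.Basic (irr_one_eq_charDegree charDegree_pos)

universe u

theorem goodOn_of_K {A : Type u} [Group A] [Finite A] {p : ℕ} [hp : Fact p.Prime] {M : Ideal AlgInt}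
    (hM : IsPModular p M) (N K : Subgroup A) [N.Normal] [K.Normal] (hNK : N ≤ K) (P : Sylow p A) {a : ℕ}
    (ψ : IrrCharacter K) (ξ : IrrCharacter ↥(K ⊔ (P : Subgroup A))) (hξ : ξ ∈ principalBlock M ↥(K ⊔ (P : Subgroup A)))
    (hres : ∀ x : K, (ξ : ↥(K ⊔ (P : Subgroup A)) → ℂ) ⟨x, le_sup_left (a := K) x.2⟩ = (ψ : K → ℂ) x)
    (hv : vd p (ξ : ↥(K ⊔ (P : Subgroup A)) → ℂ) ≤ a) (hdv : p ∣ charDegree (ψ : K → ℂ))
    (hker : ¬ charDegree (ψ : K → ℂ) ∣ (N.subgroupOf K).index) : GoodOn p a M N := by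
  classical
  have := Fintype.ofFinite A
  have := Fintype.ofFinite N
  have := Fintype.ofFinite K
  have := Fintype.ofFinite ↥(K ⊔ (P : Subgroup A))
  have := Fintype.ofFinite ↥(N.subgroupOf K)
  obtain ⟨χ, hχ, hvχ, hc⟩ := H362.HT.exists_over hM P (K ⊔ (P : Subgroup A)) le_sup_right ξ hξ
  have h1 : classInner (fun n : K => (ξ : ↥(K ⊔ (P : Subgroup A)) → ℂ)
      (inclusion (le_sup_left : K ≤ K ⊔ (P : Subgroup A)) n)) (ψ : K → ℂ) ≠ 0 := by
    have h2 : (fun n : K => (ξ : ↥(K ⊔ (P : Subgroup A)) → ℂ)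
      (inclusion (le_sup_left : K ≤ K ⊔ (P : Subgroup A)) n)) = (ψ : K → ℂ) := funext hres
    rw [h2, classInner_irr_self ψ.2]
    exact one_ne_zero
  have hcon : classInner (fun n : K => (χ : A → ℂ) n) (ψ : K → ℂ) ≠ 0 :=
    Cfsg.Agent.H955.FS.constituent_trans (inclusion (le_sup_left : K ≤ K ⊔ (P : Subgroup A)))
      (isCharacter_comp (K ⊔ (P : Subgroup A)).subtype (isIrr_isCharacter χ.2)) ξ.2 ψ.2 hc h1
  have hp0 : charDegree (χ : A → ℂ) ≠ 0 := (charDegree_pos χ.2).ne'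
  have hdvd : p ∣ charDegree (χ : A → ℂ) := hdv.trans (H596.charDegree_dvd_of_over K χ.2 ψ.2 hcon).1
  refine ⟨χ, hχ, ?_, ?_, hvχ.trans hv⟩
  · by_contra hcon'
    push Not at hcon'
    have h3 : ∑ m : N.subgroupOf K, (ψ : K → ℂ) m = 0 := by
      by_contra h
      exact hker (H678.Codeg.charDegree_dvd_index ψ _ (H678.Subnormal.le_chKer_of_sum_ne_zero ψ (N.subgroupOf K) h))
    obtain ⟨μ, hμ⟩ := Cfsg.Agent.Blocks.Fong.exists_constituent (N.subgroupOf K) ψ
    have h4 : classInner (fun n : N.subgroupOf K => (χ : A → ℂ) ((n : K) : A)) (μ : N.subgroupOf K → ℂ) ≠ 0 :=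
      Cfsg.Agent.H955.FS.constituent_trans (N.subgroupOf K).subtype
        (isCharacter_comp K.subtype (isIrr_isCharacter χ.2)) ψ.2 μ.2 hcon hμ
    let one : IrrCharacter (N.subgroupOf K) := ⟨fun _ => 1, Cfsg.Agent.Blocks.Basic.isIrrCharacter_one⟩
    have h5 : (fun n : N.subgroupOf K => (χ : A → ℂ) ((n : K) : A)) = (χ : A → ℂ) 1 • (one : N.subgroupOf K → ℂ) := by
      funext n
      rw [hcon' _ (Subgroup.mem_subgroupOf.1 n.2)]
      simp [one]
    have h6 : (μ : N.subgroupOf K → ℂ) = (one : N.subgroupOf K → ℂ) := by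
      by_contra h
      apply h4
      rw [h5, classInner_smul_left, classInner_irr_ne one.2 μ.2 (fun h' => h h'.symm), mul_zero]
    apply hμ
    rw [h6, classInner_def]
    simp only [one, map_one, mul_one]
    rw [h3, mul_zero]
  · rw [vd, Nat.pos_iff_ne_zero]
    exact (hp.out.factorization_pos_of_dvd hp0 hdvd).ne'

end Cfsg.Agent.H614.HF
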