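import Cfsg.Agent.H614.HF.Two
import Cfsg.Agent.H614.HF.Det
import Cfsg.Agent.H695.LB.Crit
import Cfsg.Agent.LieRecognition.FieldSemilinear

/-!
# S4933, row `PSL_3(q)`, `p = 3`, `9 ∣ q - 1` (helper614): `A` induces no diagonal automorphism; the row
-/

set_option autoImplicit false
set_option linter.unusedSectionVars false

namespace Cfsg.Agent.H614.HF

open scoped MatrixGroups
open Matrix Finset Cfsg Cfsg.Agent.H583.BR Cfsg.Agent.H199.PslAut Cfsg.Agent.H614.HE Cfsg.Agent.H316.HT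
open Cfsg.Agent.H139.Bruhat Cfsg.Agent.H139.BlockCount Cfsg.Agent.H139.FlagInner
open Cfsg.Agent.ClassicalGeometry.AutPSL.Root Cfsg.Agent.ClassicalGeometry.AutPSL.Auto
open Cfsg.Agent.H719.HT (cA cA_mem mem_of_cA cA_inj)

universe u v

variable {F : Type v} [Field F] [Finite F] {A : Type u} [Group A] [Finite A]

/-- the elements of `N P` act by products of inner diagonal and field automorphisms -/
theorem form_sup {N : Subgroup A} [N.Normal] (e : N ≃* ProjectiveSpecialLinearGroup (Fin 3) F) (P : Sylow 3 A) {x : A}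
    (hx : x ∈ N ⊔ (P : Subgroup A)) : ∃ (g : GL (Fin 3) F) (σ : F ≃+* F), cA e x = Psi 3 F g * phi 3 F σ ∧
      ∃ k : ℕ, σ ^ (3 ^ k) = 1 := by
  have : Fact (Nat.Prime 3) := ⟨Nat.prime_three⟩
  obtain ⟨k, hk⟩ := exists_pow_mem N P hx
  obtain ⟨s, hs⟩ := le_KK e hk
  have h1 : (cA e x) ^ (3 ^ k) = Psi 3 F s := by rw [hs, map_pow]
  obtain ⟨g, σ, h2, h3⟩ := form_of_pow (by norm_num) ((by decide : Odd 3).pow) h1
  exact ⟨g, σ, h2, k, h3⟩

/-- the field automorphism -/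
noncomputable def sg {N : Subgroup A} [N.Normal] (e : N ≃* ProjectiveSpecialLinearGroup (Fin 3) F) (P : Sylow 3 A) :
    ↥(N ⊔ (P : Subgroup A)) →* (F ≃+* F) :=
  MonoidHom.mk' (fun x => (form_sup e P x.2).choose_spec.choose) (by
    intro x y
    have hx := (form_sup e P x.2).choose_spec.choose_spec.1
    have hy := (form_sup e P y.2).choose_spec.choose_spec.1
    have hxy := (form_sup e P (x * y).2).choose_spec.choose_spec.1
    have hm : cA e ((x * y : ↥(N ⊔ (P : Subgroup A))) : A) = cA e (x : A) * cA e (y : A) := map_mul (cA e) (x : A) (y : A)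
    rw [hx, hy, Psi_phi_mul] at hm
    exact (Psi_phi_uniq (by norm_num) (hxy.symm.trans hm)).2)

theorem sg_spec {N : Subgroup A} [N.Normal] (e : N ≃* ProjectiveSpecialLinearGroup (Fin 3) F) (P : Sylow 3 A)
    (x : ↥(N ⊔ (P : Subgroup A))) : ∃ g, cA e (x : A) = Psi 3 F g * phi 3 F (sg e P x) :=
  ⟨_, (form_sup e P x.2).choose_spec.choose_spec.1⟩

theorem cyc_one {N : Subgroup A} [N.Normal] (hcen : Subgroup.centralizer (N : Set A) = ⊥)
    (e : N ≃* ProjectiveSpecialLinearGroup (Fin 3) F) (P : Sylow 3 A)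
    (hA : ∀ (y : A) (g : GL (Fin 3) F), cA e y = Psi 3 F g → ∃ u : Fˣ, GeneralLinearGroup.det g = u ^ 3) :
    IsCyclic (↥(N ⊔ (P : Subgroup A)) ⧸ N.subgroupOf (N ⊔ (P : Subgroup A))) := by
  have := Fintype.ofFinite F
  have hker : (sg e P).ker = N.subgroupOf (N ⊔ (P : Subgroup A)) := by
    ext x
    rw [MonoidHom.mem_ker, Subgroup.mem_subgroupOf]
    obtain ⟨g, hg⟩ := sg_spec e P x
    constructor
    · intro h
      rw [h, map_one, mul_one] at hg
      obtain ⟨u, hu⟩ := hA _ _ hg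
      obtain ⟨s, hs⟩ := exists_scal_mul g u hu
      rw [hs, ← cA_pr e s] at hg
      rw [cA_inj hcen e hg]
      exact (e.symm (pr s)).2
    · intro h
      obtain ⟨s, hs⟩ := le_KK e h
      have h1 : Psi 3 F s * phi 3 F 1 = Psi 3 F g * phi 3 F (sg e P x) := by
        rw [map_one, mul_one, hs]
        exact hg
      exact (Psi_phi_uniq (by norm_num) h1).2.symm
  have hc : IsCyclic (F ≃+* F) := LieRecognition.FieldSemilinear.isCyclic_ringAut F
  have e1 : ↥(N ⊔ (P : Subgroup A)) ⧸ N.subgroupOf (N ⊔ (P : Subgroup A)) ≃* (sg e P).range :=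
    (QuotientGroup.quotientMulEquivOfEq hker.symm).trans (QuotientGroup.quotientKerEquivRange _)
  exact isCyclic_of_surjective e1.symm e1.symm.surjective

/-- the labels -/
def l9 (k : ℕ) : ℕ := 1 + 3 * (2 * (if k = 0 then 0 else 1))

theorem lab210 : ∀ i : Fin 3, compLabel (HE.cmp 3 2 1 0) i = if i = 2 then 1 else 0 := by decide

theorem sum210 : ∑ i, HE.cmp 3 2 1 0 i = 3 := by decide

/-- the data -/
noncomputable def dat1 {N : Subgroup A} [N.Normal] (e : N ≃* ProjectiveSpecialLinearGroup (Fin 3) F)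
    (θ : Fˣ →* ℂˣ) (hθ : ∀ u, θ u ^ 9 = 1) : Dt 3 F ↥N where
  hn := by norm_num
  N := ⊤
  κ := (cA e).comp N.subtype
  inn := by
    intro s
    exact ⟨e.symm (pr s), Subgroup.mem_top _, cA_pr e s⟩
  θ := θ
  form := by
    intro h
    obtain ⟨s, hs⟩ := le_KK e h.2
    refine ⟨s, 1, by rw [map_one, mul_one]; exact hs.symm, ?_⟩
    intro u
    congr 1
  a := HE.cmp 3 2 1 0
  ha := sum210
  l := l9
  hz := by
    intro u
    have : ∑ i : Fin 3, l9 (compLabel (HE.cmp 3 2 1 0) i) = 9 := by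
      simp only [lab210]
      decide
    rw [this, hθ]

theorem hsh9 : ∀ w : Equiv.Perm (Fin 3), (∀ i j, ((l9 (if i = 2 then 1 else 0) : ℕ) : ZMod 9) + l9 (if w j = 2 then 1 else 0) =
      l9 (if j = 2 then 1 else 0) + l9 (if w i = 2 then 1 else 0)) → ∀ i, (if w i = 2 then 1 else 0) = (if i = 2 then 1 else 0) := by
  decide

/-- `λ` is invariant -/
theorem lam_inv {N : Subgroup A} [hNn : N.Normal] (e : N ≃* ProjectiveSpecialLinearGroup (Fin 3) F)
    (θ : Fˣ →* ℂˣ) (hθ : ∀ u, θ u ^ 9 = 1) {x : A} {g : GL (Fin 3) F} {σ : F ≃+* F}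
    (hx : cA e x = Psi 3 F g * phi 3 F σ) {k : ℕ} (hσ : σ ^ (3 ^ k) = 1) :
    ∃ c : N, ∀ h : (dat1 e θ hθ).BH, ∃ h' : (dat1 e θ hθ).BH,
      (MulAut.conjNormal x : MulAut N) (h : N) = c * h' * c⁻¹ ∧ (dat1 e θ hθ).lam h' = (dat1 e θ hθ).lam h := by
  have h3p : Fact (Nat.Prime 3) := ⟨Nat.prime_three⟩
  obtain ⟨c, d, hc⟩ := (dat1 e θ hθ).exists_f g
  change cA e (c : A) = _ at hc
  refine ⟨c, fun h => ?_⟩
  obtain ⟨s, hs⟩ := pr_surjective (e (h : N))
  have hs' : cA e ((h : N) : A) = Psi 3 F (SpecialLinearGroup.toGL s) := by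
    rw [← cA_pr e s, hs, e.symm_apply_apply]
  have hsB : SpecialLinearGroup.toGL s ∈ parabolicGL 3 F (HE.cmp 3 2 1 0) :=
    ((dat1 e θ hθ).inner_mem s hs').1 h.2
  let h' : N := c⁻¹ * (MulAut.conjNormal x : MulAut N) (h : N) * c
  have hcoe : ((h' : N) : A) = (c : A)⁻¹ * (x * ((h : N) : A) * x⁻¹) * c := by
    simp only [h', Subgroup.coe_mul, Subgroup.coe_inv, MulAut.conjNormal_apply]
  have hk : cA e (h' : A) = Psi 3 F (dg d * mapGL σ (SpecialLinearGroup.toGL s) * (dg d)⁻¹) * phi 3 F 1 := by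
    rw [hcoe, map_mul, map_mul, map_mul, map_mul, map_inv, map_inv, hc, hs', hx, map_one (phi 3 F), mul_one]
    have e1 : phi 3 F σ * Psi 3 F (SpecialLinearGroup.toGL s) * (phi 3 F σ)⁻¹ =
      Psi 3 F (mapGL σ (SpecialLinearGroup.toGL s)) := phi_conj_Psi _ _
    calc (Psi 3 F (g * (dg d)⁻¹))⁻¹ * (Psi 3 F g * phi 3 F σ * Psi 3 F (SpecialLinearGroup.toGL s) *
          (Psi 3 F g * phi 3 F σ)⁻¹) * Psi 3 F (g * (dg d)⁻¹)
        = (Psi 3 F (g * (dg d)⁻¹))⁻¹ * Psi 3 F g * (phi 3 F σ * Psi 3 F (SpecialLinearGroup.toGL s) * (phi 3 F σ)⁻¹) *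
          (Psi 3 F g)⁻¹ * Psi 3 F (g * (dg d)⁻¹) := by group
      _ = _ := by
          rw [e1, ← map_inv, ← map_mul, ← map_mul, ← map_inv, ← map_mul, ← map_mul]
          congr 1
          group
  have hm : dg d * mapGL σ (SpecialLinearGroup.toGL s) * (dg d)⁻¹ ∈ parabolicGL 3 F (HE.cmp 3 2 1 0) :=
    mul_mem (mul_mem (dg_mem _ _) (mapGL_mem _ _ hsB)) (inv_mem (dg_mem _ _))
  have hB : h' ∈ (dat1 e θ hθ).BH := ⟨_, 1, hm, hk⟩
  refine ⟨⟨h', hB⟩, ?_, ?_⟩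
  · change _ = c * (c⁻¹ * (MulAut.conjNormal x : MulAut N) (h : N) * c) * c⁻¹
    group
  · rw [(dat1 e θ hθ).lam_eq (h := ⟨h', hB⟩) hm hk, (dat1 e θ hθ).lam_eq (h := h) (σ := 1) hsB
      (by rw [map_one (phi 3 F), mul_one]; exact hs')]
    have h7 : (⟨_, hm⟩ : parabolicGL 3 F (HE.cmp 3 2 1 0)) =
      ⟨dg d, dg_mem _ _⟩ * ⟨_, mapGL_mem _ σ hsB⟩ * ⟨dg d, dg_mem _ _⟩⁻¹ := rfl
    have h8 : θ (dHom (HE.cmp 3 2 1 0) sum210 l9 ⟨_, hm⟩) = θ (dHom (HE.cmp 3 2 1 0) sum210 l9 ⟨_, hsB⟩) := by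
      rw [h7, conj_two', dHom_map (HE.cmp 3 2 1 0) sum210 l9 σ ⟨_, hsB⟩]
      exact θ_dHom (p := 3) θ (m := 3) hθ σ hσ (HE.cmp 3 2 1 0) sum210 (fun k => 2 * (if k = 0 then 0 else 1)) ⟨_, hsB⟩
        (by
          apply Units.ext
          rw [GeneralLinearGroup.val_det_apply]
          exact s.2)
    exact h8

theorem tool {A : Type} [Group A] [Finite A] {M : Ideal AlgInt} (hM : IsPModular 3 M)
    (P : Sylow 3 A) (H : Subgroup A) [Fintype H] (hPH : (P : Subgroup A) ≤ H) : H695.LB.Crit.Tool 3 M H := by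
  have h3p : Fact (Nat.Prime 3) := ⟨Nat.prime_three⟩
  intro ξ hξ
  obtain ⟨χ, h1, h2, h3⟩ := H362.HT.exists_over hM P H hPH ξ hξ
  exact ⟨χ, h1, h3, h2⟩

theorem index210 : (parabolicGL 3 F (HE.cmp 3 2 1 0)).index.factorization 3 = 1 ∨ ¬ 3 ∣ Nat.card F - 1 := by
  by_cases hq : 3 ∣ Nat.card F - 1
  · left
    have h3p : Fact (Nat.Prime 3) := ⟨Nat.prime_three⟩
    rw [Nat.factorization_def _ Nat.prime_three]
    have h6 := val_index (p := 3) (F := F) (by norm_num) hq (HE.cmp 3 2 1 0) sum210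
    rw [sum_cmp le_rfl (fun _ t => padicValNat 3 (Nat.factorial t)) (fun _ => by simp)] at h6
    have h7 : padicValNat 3 (Nat.factorial 3) = 1 := by
      rw [show Nat.factorial 3 = 3 * 2 from rfl, padicValNat.mul (by norm_num) (by norm_num), padicValNat_self,
        padicValNat.eq_zero_of_not_dvd (by norm_num)]
    have h8 : padicValNat 3 (Nat.factorial 2) = 0 := padicValNat.eq_zero_of_not_dvd (by decide)
    rw [h7, h8] at h6
    simpa using h6
  · exact Or.inr hq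

theorem caseOne {A : Type} [Group A] [Finite A] {N : Subgroup A} [hNn : N.Normal]
    (hcen : Subgroup.centralizer (N : Set A) = ⊥)
    (e : N ≃* ProjectiveSpecialLinearGroup (Fin 3) F) (hq : 9 ∣ Nat.card F - 1)
    (hA : ∀ (y : A) (g : GL (Fin 3) F), cA e y = Psi 3 F g → ∃ u : Fˣ, GeneralLinearGroup.det g = u ^ 3)
    {M : Ideal AlgInt} (hM : IsPModular 3 M) (P : Sylow 3 A) {a : ℕ} (ha : 0 < a) : GoodOn 3 a M N := by
  classical
  have h3p : Fact (Nat.Prime 3) := ⟨Nat.prime_three⟩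
  have := Fintype.ofFinite N
  have := Fintype.ofFinite (N ⊔ (P : Subgroup A) : Subgroup A)
  obtain ⟨θ, hθ, ζ, hζ⟩ := exists_θ (F := F) (m := 9) (by rwa [Nat.card_units])
  have := Fintype.ofFinite ↥(dat1 e θ hθ).N
  have hNn' : (dat1 e θ hθ).N.Normal := inferInstanceAs (⊤ : Subgroup N).Normal
  obtain ⟨ξ, ψ, h1, -, -, h4, -, h6⟩ := (dat1 e θ hθ).mono (p := 3) (k := 2) hM hNn' (fun u => hθ u) (fun h hh => by
    refine (dat1 e θ hθ).mackey (p := 9) hζ ?_ h hh hNn'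
    intro w hw i
    change ∀ i j, ((l9 (compLabel (HE.cmp 3 2 1 0) i) : ℕ) : ZMod 9) + l9 (compLabel (HE.cmp 3 2 1 0) (w j)) =
      l9 (compLabel (HE.cmp 3 2 1 0) j) + l9 (compLabel (HE.cmp 3 2 1 0) (w i)) at hw
    change compLabel (HE.cmp 3 2 1 0) (w i) = compLabel (HE.cmp 3 2 1 0) i
    simp only [lab210] at hw ⊢
    exact hsh9 w hw i)
  have hv : vd 3 (ξ : N → ℂ) = 1 := by
    rw [vd, h4]
    rcases index210 (F := F) with h | h
    · exact h
    · exact absurd ((by norm_num : 3 ∣ 9).trans hq) h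
  refine H695.LB.Crit.goodOn_of_inv hM N (P : Subgroup A) P.2 (tool hM P _ le_sup_right) (cyc_one hcen e P hA) ξ h1
    (by rw [hv]; exact one_pos) (by rw [hv]; exact ha) ?_
  intro x hx y
  obtain ⟨g, σ, hg, k, hσ⟩ := form_sup e P (Subgroup.mem_sup_right hx)
  obtain ⟨c, hc⟩ := lam_inv e θ hθ hg hσ
  have h7 := Cfsg.Agent.H112.HT.ind_inv (dat1 e θ hθ).BH (fun h : (dat1 e θ hθ).BH => ((dat1 e θ hθ).lam h : ℂ))
    (MulAut.conjNormal x : MulAut N) c (fun h => by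
      obtain ⟨h', h8, h9⟩ := hc h
      exact ⟨h', h8, by rw [h9]⟩) y
  rw [← h6] at h7
  rw [← h7]
  congr 1

/-- **the row `PSL_3(q)`, `p = 3`, `9 ∣ q - 1`** -/
theorem psl_nine (F : Type) [Field F] [Fintype F] (h9 : 9 ∣ Fintype.card F - 1) :
    Row 3 (ProjectiveSpecialLinearGroup (Fin 3) F) := by
  intro A _ _ N _ ⟨e⟩ hcen M hM P a ha _
  rw [← Nat.card_eq_fintype_card] at h9
  by_cases h : ∀ (y : A) (g : GL (Fin 3) F), cA e y = Psi 3 F g → ∃ u : Fˣ, GeneralLinearGroup.det g = u ^ 3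
  · exact caseOne hcen e h9 h hM P ha
  · push Not at h
    obtain ⟨y, g, h1, h2⟩ := h
    exact caseTwo hcen e ((by norm_num : 3 ∣ 9).trans h9) h1 (by rintro ⟨u, hu⟩; exact h2 u hu) hM P ha

end Cfsg.Agent.H614.HF
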