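import Cfsg.Agent.H614.HF.Mon
import Cfsg.Agent.H614.HF.Good
import Cfsg.Agent.H614.HE.Row
import Cfsg.Agent.H719.HT.OutG

/-!
# S4933, row `PSL_3(q)`, `p = 3` (helper614): `A` induces a diagonal automorphism
-/

set_option autoImplicit false
set_option linter.unusedSectionVars false

namespace Cfsg.Agent.H614.HF

open scoped MatrixGroups
open Matrix Finset Cfsg Cfsg.Agent.H583.BR Cfsg.Agent.H199.PslAut Cfsg.Agent.H614.HE Cfsg.Agent.H316.HT
open Cfsg.Agent.H139.Bruhat Cfsg.Agent.H139.BlockCount Cfsg.Agent.H139.FlagInner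
open Cfsg.Agent.ClassicalGeometry.AutPSL.Root Cfsg.Agent.ClassicalGeometry.AutPSL.Auto
open Cfsg.Agent.H719.HT (cA cA_mem mem_of_cA cA_inj)

universe u v

section

variable {F : Type v} [Field F] [Finite F]

/-- a non-cube generates the units modulo cubes -/
theorem exists_cube {d0 : Fˣ} (h0 : ¬ ∃ u : Fˣ, d0 = u ^ 3) (d : Fˣ) : ∃ (i : ℤ) (u : Fˣ), d = d0 ^ i * u ^ 3 := by
  have := Fintype.ofFinite F
  obtain ⟨z, hz⟩ := IsCyclic.exists_generator (α := Fˣ)
  obtain ⟨a, ha⟩ := hz d0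
  obtain ⟨b, hb⟩ := hz d
  change z ^ a = d0 at ha
  change z ^ b = d at hb
  have h3 : ¬ (3 : ℤ) ∣ a := by
    rintro ⟨c, rfl⟩
    apply h0
    refine ⟨z ^ c, ?_⟩
    rw [← ha, mul_comm, _root_.zpow_mul]
    norm_cast
  obtain ⟨m, hm⟩ : ∃ m : ℤ, a * a = 1 + 3 * m := by
    have h4 : a % 3 = 1 ∨ a % 3 = 2 := by omega
    have h5 := Int.emod_add_mul_ediv a 3
    rcases h4 with h | h
    · refine ⟨3 * (a / 3) * (a / 3) + 2 * (a / 3), ?_⟩
      rw [h] at h5
      calc a * a = (1 + 3 * (a / 3)) * (1 + 3 * (a / 3)) := by rw [h5]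
        _ = _ := by ring
    · refine ⟨3 * (a / 3) * (a / 3) + 4 * (a / 3) + 1, ?_⟩
      rw [h] at h5
      calc a * a = (2 + 3 * (a / 3)) * (2 + 3 * (a / 3)) := by rw [h5]
        _ = _ := by ring
  refine ⟨a * b, z ^ (-(m * b)), ?_⟩
  rw [← ha, ← hb, ← _root_.zpow_mul, ← _root_.zpow_natCast (z ^ (-(m * b))) 3, ← _root_.zpow_mul, ← _root_.zpow_add]
  congr 1
  push_cast
  have : a * (a * b) = (1 + 3 * m) * b := by rw [← hm]; ring
  rw [this]
  ring

end

section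

variable {F : Type v} [Field F] [Finite F] {A : Type u} [Group A] [Finite A]

/-- the inner diagonal part of `A` -/
noncomputable def KK {N : Subgroup A} [N.Normal] (e : N ≃* ProjectiveSpecialLinearGroup (Fin 3) F) : Subgroup A :=
  ((Psi 3 F).range).comap (cA e)

theorem KK_normal {N : Subgroup A} [N.Normal] (e : N ≃* ProjectiveSpecialLinearGroup (Fin 3) F) : (KK e).Normal := by
  have := Fintype.ofFinite F
  have h1 : ((Psi 3 F).range).Normal := by
    rw [← inndiag_eq]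
    exact inndiag_normal (by norm_num)
  exact h1.comap _

omit [Finite F] [Finite A] in
theorem cA_pr {N : Subgroup A} [N.Normal] (e : N ≃* ProjectiveSpecialLinearGroup (Fin 3) F)
    (s : SpecialLinearGroup (Fin 3) F) : cA e (e.symm (pr s) : N) = Psi 3 F (SpecialLinearGroup.toGL s) := by
  rw [cA_mem, e.apply_symm_apply]
  exact (Psi_coe s).symm

omit [Finite F] [Finite A] in
theorem le_KK {N : Subgroup A} [N.Normal] (e : N ≃* ProjectiveSpecialLinearGroup (Fin 3) F) : N ≤ KK e := by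
  intro x hx
  obtain ⟨s, hs⟩ := pr_surjective (e ⟨x, hx⟩)
  refine ⟨SpecialLinearGroup.toGL s, ?_⟩
  rw [← cA_pr e s, hs, e.symm_apply_apply]

omit [Finite F] [Finite A] in
theorem exists_scal_mul (g : GL (Fin 3) F) (u : Fˣ) (hu : GeneralLinearGroup.det g = u ^ 3) :
    ∃ s : SpecialLinearGroup (Fin 3) F, Psi 3 F g = Psi 3 F (SpecialLinearGroup.toGL s) := by
  obtain ⟨s, hs⟩ := exists_toGL (g := g * (scal 3 F u)⁻¹) (by
    rw [map_mul, map_inv, hu, scal_eq_dg, det_dg]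
    simp)
  refine ⟨s, ?_⟩
  rw [hs, map_mul, map_inv, Psi_scal, inv_one, mul_one]

omit [Finite F] [Finite A] in
theorem pow_three_mem {N : Subgroup A} [N.Normal] (hcen : Subgroup.centralizer (N : Set A) = ⊥)
    (e : N ≃* ProjectiveSpecialLinearGroup (Fin 3) F)
    {x : A} (hx : x ∈ KK e) : x ^ 3 ∈ N := by
  obtain ⟨g, hg⟩ := hx
  obtain ⟨s, hs⟩ := exists_scal_mul (g ^ 3) (GeneralLinearGroup.det g) (by rw [map_pow])
  have h1 : cA e (x ^ 3) = cA e (e.symm (pr s) : N) := by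
    rw [map_pow, ← hg, ← map_pow, hs, cA_pr]
  rw [cA_inj hcen e h1]
  exact (e.symm (pr s)).2

theorem exists_all {N : Subgroup A} [N.Normal] (e : N ≃* ProjectiveSpecialLinearGroup (Fin 3) F)
    {y0 : A} {g0 : GL (Fin 3) F} (h0 : cA e y0 = Psi 3 F g0) (hn : ¬ ∃ u : Fˣ, GeneralLinearGroup.det g0 = u ^ 3)
    (g : GL (Fin 3) F) : ∃ y ∈ KK e, cA e y = Psi 3 F g := by
  obtain ⟨i, u, hu⟩ := exists_cube hn (GeneralLinearGroup.det g)
  obtain ⟨s, hs⟩ := exists_scal_mul (g * (g0 ^ i)⁻¹) u (by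
    rw [map_mul, map_inv, map_zpow, hu, mul_comm, inv_mul_cancel_left])
  have h1 : cA e ((e.symm (pr s) : N) * y0 ^ i) = Psi 3 F g := by
    rw [map_mul, cA_pr, ← hs, map_zpow, h0, ← map_zpow, ← map_mul, inv_mul_cancel_right]
  exact ⟨_, ⟨g, h1.symm⟩, h1⟩

theorem lab111 : ∀ i : Fin 3, compLabel (cmp 3 1 1 1) i = i.1 := by decide

theorem sum111 : ∑ i, cmp 3 1 1 1 i = 3 := by decide

/-- the data -/
noncomputable def dat2 {N : Subgroup A} [N.Normal] (e : N ≃* ProjectiveSpecialLinearGroup (Fin 3) F) (P : Sylow 3 A)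
    (θ : Fˣ →* ℂˣ) (hθ : ∀ u, θ u ^ 3 = 1) : Dt 3 F ↥(KK e ⊔ (P : Subgroup A)) where
  hn := by norm_num
  N := (KK e).subgroupOf _
  κ := (cA e).comp (KK e ⊔ (P : Subgroup A)).subtype
  inn := by
    intro s
    exact ⟨⟨(e.symm (pr s) : N), le_sup_left (a := KK e) (le_KK e (e.symm (pr s)).2)⟩,
      Subgroup.mem_subgroupOf.2 (le_KK e (e.symm (pr s)).2), cA_pr e s⟩
  θ := θ
  form := by
    intro h
    have := KK_normal e
    have : Fact (Nat.Prime 3) := ⟨Nat.prime_three⟩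
    obtain ⟨k, hk⟩ := exists_pow_mem (KK e) P h.2
    obtain ⟨s, hs⟩ := hk
    have h1 : (cA e (h : A)) ^ (3 ^ k) = Psi 3 F s := by rw [hs, map_pow]
    obtain ⟨g, σ, h2, h3⟩ := form_of_pow (by norm_num) ((by decide : Odd 3).pow) h1
    exact ⟨g, σ, h2, θ_inv θ hθ σ h3⟩
  a := cmp 3 1 1 1
  ha := sum111
  l := fun k => k
  hz := by
    intro u
    simp only [lab111]
    have : ∑ i : Fin 3, i.1 = 3 := by decide
    rw [this, hθ]

theorem index111 : (parabolicGL 3 F (cmp 3 1 1 1)).index = (1 + Nat.card F) * (1 + Nat.card F + Nat.card F ^ 2) := by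
  have := Fintype.ofFinite F
  have h1 := index_parabolicGL (F := F) (q := Nat.card F) Nat.card_eq_fintype_card.symm (cmp 3 1 1 1) sum111
  have h2 : ∏ i : Fin 3, ∏ j ∈ Finset.range (cmp 3 1 1 1 i), ∑ l ∈ Finset.range (j + 1), Nat.card F ^ l = 1 := by
    simp [Fin.prod_univ_three, HE.cmp]
  rw [h2, mul_one] at h1
  change Nat.card (GL (Fin 3) F ⧸ parabolicGL 3 F (cmp 3 1 1 1)) = _
  rw [h1]
  simp [Finset.prod_range_succ, Finset.sum_range_succ]

theorem caseTwo {N : Subgroup A} [N.Normal] (hcen : Subgroup.centralizer (N : Set A) = ⊥)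
    (e : N ≃* ProjectiveSpecialLinearGroup (Fin 3) F) (hq : 3 ∣ Nat.card F - 1)
    {y0 : A} {g0 : GL (Fin 3) F} (h0 : cA e y0 = Psi 3 F g0) (hn : ¬ ∃ u : Fˣ, GeneralLinearGroup.det g0 = u ^ 3)
    {M : Ideal AlgInt} (hM : IsPModular 3 M) (P : Sylow 3 A) {a : ℕ} (ha : 0 < a) : GoodOn 3 a M N := by
  classical
  have hK := KK_normal e
  have h3p : Fact (Nat.Prime 3) := ⟨Nat.prime_three⟩
  have := Fintype.ofFinite ↥(KK e ⊔ (P : Subgroup A))
  have hqF : 1 < Nat.card F := by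
    have := Fintype.ofFinite F
    rw [Nat.card_eq_fintype_card]
    exact Fintype.one_lt_card
  obtain ⟨θ, hθ, ζ, hζ⟩ := exists_θ (F := F) (m := 3) (by rwa [Nat.card_units])
  let D := dat2 e P θ hθ
  have := Fintype.ofFinite ↥D.N
  have hNn : D.N.Normal := inferInstanceAs ((KK e).subgroupOf (KK e ⊔ (P : Subgroup A))).Normal
  have key : ∃ (ξ : IrrCharacter ↥(KK e ⊔ (P : Subgroup A)))
      (ψ : IrrCharacter ↥((KK e).subgroupOf (KK e ⊔ (P : Subgroup A)))),
      ξ ∈ principalBlock M ↥(KK e ⊔ (P : Subgroup A)) ∧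
      ψ ∈ principalBlock M ↥((KK e).subgroupOf (KK e ⊔ (P : Subgroup A))) ∧
      (∀ x : ↥((KK e).subgroupOf (KK e ⊔ (P : Subgroup A))), (ξ : ↥(KK e ⊔ (P : Subgroup A)) → ℂ) x =
        (ψ : ↥((KK e).subgroupOf (KK e ⊔ (P : Subgroup A))) → ℂ) x) ∧
      charDegree (ξ : ↥(KK e ⊔ (P : Subgroup A)) → ℂ) = (parabolicGL 3 F (cmp 3 1 1 1)).index ∧
      charDegree (ψ : ↥((KK e).subgroupOf (KK e ⊔ (P : Subgroup A))) → ℂ) = (parabolicGL 3 F (cmp 3 1 1 1)).index ∧
      (ξ : ↥(KK e ⊔ (P : Subgroup A)) → ℂ) = indFun D.BH (fun h : D.BH => (D.lam h : ℂ)) :=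
    D.mono (p := 3) (k := 1) hM hNn (fun u => by rw [pow_one]; exact hθ u) (fun h hh => by
      refine D.mackeyK (p := 3) hζ ?_ ?_ h hh hNn
      · intro g
        obtain ⟨y, hy, ey⟩ := exists_all e h0 hn g
        exact ⟨⟨y, le_sup_left (a := KK e) hy⟩, Subgroup.mem_subgroupOf.2 hy, ey⟩
      · intro w hw i
        have h5 := hw i
        change (((compLabel (cmp 3 1 1 1) (w i) : ℕ)) : ZMod 3) = ((compLabel (cmp 3 1 1 1) i : ℕ) : ZMod 3) at h5
        change compLabel (cmp 3 1 1 1) (w i) = compLabel (cmp 3 1 1 1) i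
        rw [lab111, lab111] at h5 ⊢
        rwa [ZMod.natCast_eq_natCast_iff', Nat.mod_eq_of_lt (w i).2, Nat.mod_eq_of_lt i.2] at h5)
  obtain ⟨ξ, ψ, h1, -, h3, h4, h5, -⟩ := key
  let f : ↥((KK e).subgroupOf (KK e ⊔ (P : Subgroup A))) ≃* KK e := Subgroup.subgroupOfEquivOfLe le_sup_left
  have hv : (parabolicGL 3 F (cmp 3 1 1 1)).index.factorization 3 = 1 := by
    rw [Nat.factorization_def _ Nat.prime_three]
    have h6 := val_index (p := 3) (F := F) (by norm_num) hq (cmp 3 1 1 1) sum111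
    rw [sum_cmp le_rfl (fun _ t => padicValNat 3 (Nat.factorial t)) (fun _ => by simp)] at h6
    have h7 : padicValNat 3 (Nat.factorial 3) = 1 := by
      rw [show Nat.factorial 3 = 3 * 2 from rfl, padicValNat.mul (by norm_num) (by norm_num), padicValNat_self,
        padicValNat.eq_zero_of_not_dvd (by norm_num)]
    rw [h7] at h6
    simpa using h6
  refine goodOn_of_K hM N (KK e) (le_KK e) P (H649.irrMap f ψ) ξ h1 ?_ ?_ ?_ ?_
  · intro x
    rw [H649.irrMap_apply]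
    exact h3 (f.symm x)
  · rw [vd, h4, hv]
    exact ha
  · rw [H649.charDegree_irrMap, h5]
    refine Nat.dvd_of_factorization_pos ?_
    rw [hv]
    exact one_ne_zero
  · rw [H649.charDegree_irrMap, h5, index111]
    intro h
    have hpg : IsPGroup 3 (↥(KK e) ⧸ N.subgroupOf (KK e)) := by
      intro x
      obtain ⟨x, rfl⟩ := QuotientGroup.mk_surjective x
      refine ⟨1, ?_⟩
      rw [pow_one, ← QuotientGroup.mk_pow, QuotientGroup.eq_one_iff, Subgroup.mem_subgroupOf]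
      exact pow_three_mem hcen e x.2
    obtain ⟨k, hk⟩ := IsPGroup.iff_card.1 hpg
    have h6 : 1 + Nat.card F ∣ 3 ^ k := (dvd_mul_right _ _).trans (h.trans (dvd_of_eq hk))
    obtain ⟨j, -, hj⟩ := (Nat.dvd_prime_pow Nat.prime_three).1 h6
    rcases j with _ | j
    · rw [pow_zero] at hj
      omega
    · rw [pow_succ] at hj
      omega

end

end Cfsg.Agent.H614.HF
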